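import Cfsg.Agent.Lib.Leech.SimpleA
import Cfsg.Agent.Lib.Steiner.Witt22
import Cfsg.Agent.Lib.Steiner.Graphs
import Cfsg.Prelude.Def_Sporadic

/-! The Higman–Sims group acts on the point-block graph of an `S(3, 6, 22)`. -/

set_option autoImplicit false

namespace Cfsg.Lib.Leech

open Finset MulAction
open scoped Pointwise

theorem hs_of_graph {V : Type*} (Γ : SimpleGraph V) (f : V → leechLattice)
    (hinj : Function.Injective f) (hr : Set.range f = hsSet)
    (hadj : ∀ u v, Γ.Adj u v ↔ dt (f u) (f v) = 8) : ∃ H : Subgroup (Γ ≃g Γ), IsHS H := by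
  have hex : ∀ (g : HS0) (v : V), ∃ w, f w = g.1 • f v := fun g v => by
    have : g.1 • f v ∈ Set.range f := hr ▸ smul_mem_hsSet g.2 (hr ▸ Set.mem_range_self v)
    exact this
  choose act hact using hex
  have h1 : ∀ v, act 1 v = v := fun v => hinj (by rw [hact]; exact one_smul _ _)
  have h2 : ∀ g h v, act (g * h) v = act g (act h v) := fun g h v => hinj (by
    rw [hact, hact, hact]; exact mul_smul _ _ _)
  let φ : HS0 →* (Γ ≃g Γ) := MonoidHom.mk' (fun g =>
    { toFun := act g
      invFun := act g⁻¹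
      left_inv := fun v => by rw [← h2, inv_mul_cancel, h1]
      right_inv := fun v => by rw [← h2, mul_inv_cancel, h1]
      map_rel_iff' := fun {u v} => by
        show Γ.Adj (act g u) (act g v) ↔ _
        rw [hadj, hadj, hact, hact, dt_smul] })
    fun g h => RelIso.ext fun v => h2 g h v
  have hφ : Function.Injective φ := by
    rw [← MonoidHom.ker_eq_bot_iff]
    refine (simple_hs0.eq_bot_or_eq_top_of_normal φ.ker inferInstance).resolve_right fun h => ?_
    have hm : m3 (some 1) ∈ hsSet := by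
      rw [hsSet_eq]
      exact Or.inl (Or.inr ⟨some 1, ⟨by simp, by decide⟩, rfl⟩)
    obtain ⟨g, hg, e⟩ := hs_trans hm
    obtain ⟨v, hv⟩ : m3 (some 1) ∈ Set.range f := hr ▸ hm
    have h3 : φ ⟨g, hg⟩ = 1 := (h ▸ Subgroup.mem_top _ : (⟨g, hg⟩ : HS0) ∈ φ.ker)
    have h4 : act ⟨g, hg⟩ v = v := by
      show φ ⟨g, hg⟩ v = v
      rw [h3]; rfl
    have h5 := hact ⟨g, hg⟩ v
    rw [h4, hv, e] at h5
    have h6 := congrArg (fun x : leechLattice => x.1 none) h5
    simp only [m3_apply, v44_apply] at h6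
    omega
  have := simple_hs0
  exact ⟨φ.range, (MonoidHom.ofInjective hφ).symm.isSimpleGroup, by
    rw [← card_hs0]; exact Nat.card_congr (MonoidHom.ofInjective hφ).symm.toEquiv⟩

theorem dt_oct2_oct2 {c d : Finset GolayPt} (hc : c ∈ GC) (hd : d ∈ GC) :
    dt (oct2 c hc) (oct2 d hd) = 4 * ((d ∩ c).card : ℤ) := by
  rw [dt_oct2]
  simp only [oct2_apply, ind, ← Finset.mul_sum, Finset.sum_ite_mem, Finset.sum_const]
  simp
  ring

section
variable {α : Type*} [DecidableEq α] (ι : α → GolayPt)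

/-- a set of points of the derived design together with the two removed points -/
def ext2 (b : Finset α) : Finset GolayPt := insert none (insert (some 0) (b.image ι))

variable {ι} (hι : Function.Injective ι) (hr : ∀ j, j ∈ Set.range ι ↔ j ≠ none ∧ j ≠ some 0)
include hι hr

omit [DecidableEq α] in
theorem mem_ext2 (b : Finset α) (a : α) : ι a ∈ ext2 ι b ↔ a ∈ b := by
  have := (hr (ι a)).mp ⟨a, rfl⟩
  simp [ext2, this.1, this.2, hι.eq_iff]

omit [DecidableEq α] in
theorem card_ext2 (b : Finset α) : (ext2 ι b).card = b.card + 2 := by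
  unfold ext2
  rw [Finset.card_insert_of_notMem, Finset.card_insert_of_notMem,
    Finset.card_image_of_injective _ hι]
  · intro h
    obtain ⟨a, -, e⟩ := Finset.mem_image.mp h
    exact ((hr _).mp ⟨a, e⟩).2 rfl
  · intro h
    rcases Finset.mem_insert.mp h with h | h
    · exact none_ne_zero h
    · obtain ⟨a, -, e⟩ := Finset.mem_image.mp h
      exact ((hr _).mp ⟨a, e⟩).1 rfl

omit hr in
theorem ext2_inter (b c : Finset α) : ext2 ι b ∩ ext2 ι c = ext2 ι (b ∩ c) := by
  unfold ext2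
  rw [Finset.image_inter _ _ hι, Finset.insert_inter_distrib, Finset.insert_inter_distrib]

omit [DecidableEq α] in
theorem ext2_inj {b c : Finset α} (h : ext2 ι b = ext2 ι c) : b = c :=
  Finset.ext fun a => by rw [← mem_ext2 hι hr, h, mem_ext2 hι hr]

omit [DecidableEq α] hι in
theorem exists_ext2 [Fintype α] {c : Finset GolayPt} (h1 : none ∈ c) (h2 : some 0 ∈ c) :
    ∃ b : Finset α, ext2 ι b = c := by
  refine ⟨univ.filter fun a => ι a ∈ c, Finset.ext fun j => ?_⟩
  simp only [ext2, Finset.mem_insert, Finset.mem_image, Finset.mem_filter, Finset.mem_univ,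
    true_and]
  constructor
  · rintro (rfl | rfl | ⟨a, ha, rfl⟩) <;> assumption
  · intro h
    by_cases h3 : j = none
    · exact Or.inl h3
    by_cases h4 : j = some 0
    · exact Or.inr (Or.inl h4)
    obtain ⟨a, rfl⟩ := (hr j).mpr ⟨h3, h4⟩
    exact Or.inr (Or.inr ⟨a, h, rfl⟩)

omit [DecidableEq α] in
theorem steiner_ext2 [Fintype α] : IsSteinerSystem 3 6 {b : Finset α | ext2 ι b ∈ octads} := by
  refine ⟨fun b hb => ?_, fun s hs => ?_⟩
  · have := hb.2
    rw [card_ext2 hι hr] at this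
    omega
  · obtain ⟨o, ⟨ho, hso⟩, hu⟩ := Golay.octads_steiner.2 (ext2 ι s) (by rw [card_ext2 hι hr, hs])
    obtain ⟨b, rfl⟩ := exists_ext2 hr (c := o) (hso (by simp [ext2])) (hso (by simp [ext2]))
    refine ⟨b, ⟨ho, fun a ha => (mem_ext2 hι hr _ _).mp (hso ((mem_ext2 hι hr _ _).mpr ha))⟩,
      fun c hc => ext2_inj hι hr (hu _ ⟨hc.1, ?_⟩)⟩
    exact Finset.insert_subset_insert _ (Finset.insert_subset_insert _
      (Finset.image_subset_image hc.2))

theorem hs_of_ext2 [Fintype α] {B : Set (Finset α)} (hB : ∀ b, b ∈ B ↔ ext2 ι b ∈ octads) :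
    ∃ H : Subgroup (pointBlockGraph B ≃g pointBlockGraph B), IsHS H := by
  have hS : IsSteinerSystem 3 6 B := by
    rw [show B = {b : Finset α | ext2 ι b ∈ octads} from Set.ext hB]
    exact steiner_ext2 hι hr
  let f : Option (α ⊕ B) → leechLattice := fun v => match v with
    | none => v44 none (some 0)
    | some (Sum.inl a) => m3 (ι a)
    | some (Sum.inr b) => oct2 (ext2 ι b.1) ((hB _).mp b.2).1
  have n1 : ∀ b : Finset α, none ∈ ext2 ι b := fun b => by simp [ext2]
  have n2 : ∀ b : Finset α, some 0 ∈ ext2 ι b := fun b => by simp [ext2]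
  have d1 : ∀ a, dt (f (some (Sum.inl a))) (f none) = 8 := fun a => by
    have := (hr (ι a)).mp ⟨a, rfl⟩
    show dt (m3 _) (v44 _ _) = 8
    rw [dt_v44, m3_apply, m3_apply, del_ne this.1.symm, del_ne this.2.symm]; rfl
  have d2 : ∀ b, dt (f (some (Sum.inr b))) (f none) = 16 := fun b => by
    show dt (oct2 _ _) (v44 _ _) = 16
    rw [dt_v44, oct2_apply, oct2_apply]; simp [ind, n1, n2]
  have d3 : ∀ a a', dt (f (some (Sum.inl a))) (f (some (Sum.inl a'))) =
      if a = a' then 32 else 16 := fun a a' => by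
    show dt (m3 _) (m3 _) = _
    rw [dt_m3, sum_m3, m3_apply]
    split_ifs with h
    · rw [h, del_self]; rfl
    · rw [del_ne (fun h' => h (hι h').symm)]; rfl
  have d4 : ∀ a (b : B), dt (f (some (Sum.inr b))) (f (some (Sum.inl a))) =
      if a ∈ b.1 then 8 else 16 := fun a b => by
    show dt (oct2 _ _) (m3 _) = _
    rw [dt_m3, sum_oct2, oct2_apply, ((hB _).mp b.2).2]
    simp only [ind, mem_ext2 hι hr]
    split_ifs <;> rfl
  have d5 : ∀ b c : B, dt (f (some (Sum.inr b))) (f (some (Sum.inr c))) =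
      4 * ((c.1 ∩ b.1).card : ℤ) + 8 := fun b c => by
    show dt (oct2 _ _) (oct2 _ _) = _
    rw [dt_oct2_oct2, ext2_inter hι, card_ext2 hι hr]
    push_cast
    ring
  have d0 : dt (f none) (f none) = 32 := by
    show dt (v44 _ _) (v44 _ _) = 32
    rw [dt_self, nrm_v44 none_ne_zero]
  refine hs_of_graph _ f ?_ ?_ ?_
  · rintro (_ | a | b) (_ | a' | b') h
    · rfl
    · have := d1 a'; rw [← h, d0] at this; omega
    · have := d2 b'; rw [← h, d0] at this; omega
    · have := d1 a; rw [h, d0] at this; omega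
    · rw [hι (m3_inj h)]
    · have h1 := d1 a; rw [h, d2] at h1; omega
    · have := d2 b; rw [h, d0] at this; omega
    · have h1 := d1 a'; rw [← h, d2] at h1; omega
    · have h1 : oc (ext2 ι b.1) = oc (ext2 ι b'.1) := by
        rw [oc_eq ((hB _).mp b.2).1, oc_eq ((hB _).mp b'.2).1]; exact h
      rw [Subtype.ext (ext2_inj hι hr (oc_injOn ((hB _).mp b.2).1 ((hB _).mp b'.2).1 h1))]
  · rw [hsSet_eq]
    ext x
    constructor
    · rintro ⟨_ | a | b, rfl⟩
      · exact Or.inl (Or.inl rfl)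
      · exact Or.inl (Or.inr ⟨ι a, (hr _).mp ⟨a, rfl⟩, rfl⟩)
      · exact Or.inr ⟨ext2 ι b.1, ⟨(hB _).mp b.2, n1 _, n2 _⟩, oc_eq ((hB _).mp b.2).1⟩
    · rintro ((rfl | ⟨j, hj, rfl⟩) | ⟨c, hc, rfl⟩)
      · exact ⟨none, rfl⟩
      · obtain ⟨a, rfl⟩ := (hr j).mpr hj
        exact ⟨some (Sum.inl a), rfl⟩
      · obtain ⟨b, rfl⟩ := exists_ext2 hr hc.2.1 hc.2.2
        exact ⟨some (Sum.inr ⟨b, (hB _).mpr hc.1⟩), (oc_eq hc.1.1).symm⟩
  · rintro (_ | a | b) (_ | a' | b')
    · rw [d0]; simp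
    · rw [dt_comm, d1]; simp [Steiner.pb_np]
    · rw [dt_comm, d2]; simp [Steiner.pb_nb]
    · rw [d1]; simp [Steiner.pb_pn]
    · rw [d3]; split_ifs <;> simp [Steiner.pb_pp]
    · rw [dt_comm, d4, Steiner.pb_pb]; split_ifs with h <;> simp [h]
    · rw [d2]; simp [Steiner.pb_bn]
    · rw [d4, Steiner.pb_bp]; split_ifs with h <;> simp [h]
    · rw [d5, Steiner.pb_bb hS, Finset.disjoint_iff_inter_eq_empty, ← Finset.card_eq_zero]
      omega

end

theorem hs_pointBlock {α : Type*} [Fintype α] (hα : Fintype.card α = 22) {B : Set (Finset α)}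
    (hB : IsSteinerSystem 3 6 B) :
    ∃ H : Subgroup (pointBlockGraph B ≃g pointBlockGraph B), IsHS H := by
  classical
  let P := {j : GolayPt // j ≠ none ∧ j ≠ some 0}
  have hP : Fintype.card P = 22 := by decide +kernel
  have hr : ∀ j, j ∈ Set.range (Subtype.val : P → GolayPt) ↔ j ≠ none ∧ j ≠ some 0 := fun j => by
    simp [P]
  obtain ⟨e, he⟩ := Steiner.unique22 hα hP hB (steiner_ext2 Subtype.val_injective hr)
  refine hs_of_ext2 (ι := fun a => (e a).1) (Subtype.val_injective.comp e.injective)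
    (fun j => ?_) fun b => ?_
  · rw [← hr]
    exact ⟨fun ⟨a, h⟩ => ⟨e a, h⟩, fun ⟨a, h⟩ => ⟨e.symm a, by simpa using h⟩⟩
  · have h1 : ext2 (fun a => (e a).1) b = ext2 Subtype.val (b.image e) := by
      unfold ext2
      rw [Finset.image_image]; rfl
    rw [h1]
    show _ ↔ b.image e ∈ {b : Finset P | ext2 Subtype.val b ∈ octads}
    rw [← he]
    exact ((Finset.image_injective e.injective).mem_set_image).symm

end Cfsg.Lib.Leech
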